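/- Specification of the tower IT (row S4724): groups of prime degree with a TI complement in the
Sylow normaliser.  See `blueprints/IT4724.md`. -/
import Cfsg.Agent.H2.PrKit
import Cfsg.Agent.H37.NeuA

set_option autoImplicit false

namespace H45.It

open Cfsg H87 H2.PR MulAction

universe u v

/-- The configuration: `N(P) = ⟨x, y⟩`, `E = ⟨x⟩` is TI of index two in its normaliser, `ψ` is the
only irreducible character of degree `p`. -/
structure Su {G : Type*} [Group G] (p e h : ℕ) [Fact p.Prime] (P : Sylow p G) (x y : G)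
    (ψ : IrrCharacter G) : Prop where
  simple : IsSimpleGroup G
  ins : ¬ Group.IsSolvable G
  cen : Subgroup.center G = ⊥
  lo : Lo p e h (P : Subgroup G) x y
  ox : orderOf x = e
  nor : Nat.card (Subgroup.normalizer ((Subgroup.zpowers x : Subgroup G) : Set G)) = 2 * e
  ti : ∀ g : G, ∀ a ∈ Subgroup.zpowers x, a ≠ 1 → g * a * g⁻¹ ∈ Subgroup.zpowers x →
    g ∈ Subgroup.normalizer ((Subgroup.zpowers x : Subgroup G) : Set G)
  deg : dg ψ = p
  uni : ∀ χ : IrrCharacter G, dg χ = p → χ = ψ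
  sing : ∀ z ∈ (P : Subgroup G), z ≠ 1 → (ψ : G → ℂ) z = 0
  val : ∃ ω : ℂ, ω ^ e = 1 ∧ ∀ i, ¬ e ∣ i → (ψ : G → ℂ) (x ^ i) = ω ^ i

/-- The configuration exists. -/
def JobSet : Prop :=
  ∀ (G : Type u) (Ω : Type v) [Group G] [Finite G] [MulAction G Ω] [FaithfulSMul G Ω] [Finite Ω]
    [IsPretransitive G Ω] (p : ℕ) [Fact p.Prime], Nat.card Ω = p →
    (∃! χ : IrrCharacter G, charDegree (χ : G → ℂ) = p) → ∀ (P : Sylow p G) (E : Subgroup G),
    (P : Subgroup G) ⊔ E = Subgroup.normalizer ((P : Subgroup G) : Set G) →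
    (P : Subgroup G) ⊓ E = ⊥ → Nat.card (Subgroup.normalizer (E : Set G)) = 2 * Nat.card E →
    (∀ g : G, g ∉ Subgroup.normalizer (E : Set G) →
      E ⊓ E.map (MulAut.conj g).toMonoidHom = ⊥) →
    ∃ (e h : ℕ) (x y : G) (ψ : IrrCharacter G), Su p e h P x y ψ

/-- Odd case: the exceptional characters of `E`. -/
def JobEx : Prop :=
  ∀ (G : Type u) [Group G] [Finite G] (p e h : ℕ) [Fact p.Prime] (P : Sylow p G) (x y : G)
    (ψ : IrrCharacter G), Su p e h P x y ψ → Odd e →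
    ∃ R : Finset (IrrCharacter G), e ≤ 2 * R.card + 1 ∧ ∀ χ ∈ R, dg χ = p + 1 ∧
      (∀ z ∈ (P : Subgroup G), z ≠ 1 → (χ : G → ℂ) z = 1) ∧ ∀ g, (χ : G → ℂ) g⁻¹ = (χ : G → ℂ) g

/-- Even case. -/
def JobEv : Prop :=
  ∀ (G : Type u) (Ω : Type v) [Group G] [Finite G] [MulAction G Ω] [FaithfulSMul G Ω] [Finite Ω]
    [IsPretransitive G Ω] (p e h : ℕ) [Fact p.Prime], Nat.card Ω = p → ∀ (P : Sylow p G) (x y : G)
    (ψ : IrrCharacter G), Su p e h P x y ψ → Even e → p = 5 ∧ Nat.card G = 60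

end H45.It
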