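import Cfsg.Agent.H45.CliffCorr

/-! Small bridges between the Prelude form and the ambient form of inertia groups. -/

open H42

namespace H45

variable {G : Type*} [Group G] [Finite G]

omit [Finite G] in
theorem top_le_normalizer (H : Subgroup G) [H.Normal] :
    (⊤ : Subgroup G) ≤ Subgroup.normalizer (H : Set G) := by rw [Subgroup.normalizer_eq_top]

omit [Finite G] in
theorem mem_inertia_ext (H : Subgroup G) [hN : H.Normal] (θ : H → ℂ) (g : G) :
    g ∈ inertia (ext H θ) ↔ ∀ h : H, θ ⟨g * h * g⁻¹, hN.conj_mem h h.2 g⟩ = θ h := by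
  rw [mem_inertia']
  constructor
  · intro e h
    have := e h
    rwa [ext_coe, ext_of_mem _ (hN.conj_mem h h.2 g)] at this
  · intro e x
    by_cases hx : x ∈ H
    · rw [ext_of_mem _ hx, ext_of_mem _ (hN.conj_mem x hx g)]
      exact e ⟨x, hx⟩
    · rw [ext_of_not_mem _ hx, ext_of_not_mem]
      intro h
      exact hx (by simpa [mul_assoc] using hN.conj_mem _ h g⁻¹)

omit [Finite G] in
theorem eq_inertia_ext (H T : Subgroup G) [hN : H.Normal] (θ : H → ℂ)
    (hT : ∀ g : G, g ∈ T ↔ ∀ h : H, θ ⟨g * h * g⁻¹, hN.conj_mem h h.2 g⟩ = θ h) :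
    T = ⊤ ⊓ inertia (ext H θ) := by
  ext g; rw [top_inf_eq, hT, mem_inertia_ext]

omit [Finite G] in
theorem commutator_le_of_forall {T H : Subgroup G}
    (hab : ∀ x ∈ T, ∀ y ∈ T, x * y * x⁻¹ * y⁻¹ ∈ H) : ⁅T, T⁆ ≤ H :=
  Subgroup.commutator_le.2 fun x hx y hy => hab x hx y hy

theorem classInner_indFun_subgroupOf {H T : Subgroup G} [Fintype T] (hHT : H ≤ T) (θ : H → ℂ)
    {ψ : T → ℂ} (hψ : Cfsg.IsClassFunction T ψ) :
    Cfsg.classInner (Cfsg.indFun (H.subgroupOf T)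
      (fun x => θ ⟨(x : T), Subgroup.mem_subgroupOf.mp x.2⟩)) ψ = ip H (ext H θ) (ext T ψ) := by
  rw [← ip_ind_left hHT _ (ext_mem_CF hψ), ip_eq_classInner, dn_ext, dn_ind H hHT]
  congr 2
  funext x
  exact (ext_of_mem _ _).symm

end H45
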