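/- Weights of lattices for a Sylow subgroup of prime order (tower IT). -/
import Cfsg.Agent.H45.ItSpec
import Cfsg.Agent.H93.PRT
import Cfsg.Agent.H93.PRLat
import Cfsg.Agent.H1.PrG

set_option autoImplicit false

namespace H45.It

open Cfsg H28 H35 H39 H87 H2.PR H93.PR Module Matrix Finset

section lin

theorem mem_of_wt {R W : Type*} [CommRing R] [IsDomain R] [AddCommGroup W] [Module R W]
    {T : End R W} {e : ℕ} {ζ : R} (hζ : IsPrimitiveRoot ζ e) (he : IsUnit (e : R)) (hT : T ^ e = 1)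
    {U U' : Submodule R W} (hU : ∀ v ∈ U, T v ∈ U)
    (h : ∀ γ : R, γ ^ e = 1 → ∀ v ∈ U, T v = γ • v → v ∈ U') : U ≤ U' := fun v hv => by
  have e0 : 0 < e := Nat.pos_of_ne_zero (by rintro rfl; simp at he)
  have hp : ∀ i, (T ^ i) v ∈ U := fun i => by
    induction i with
    | zero => simpa using hv
    | succ i ih => rw [pow_succ']; exact hU _ ih
  have hw : ∀ a, ∑ i ∈ range e, (ζ ^ a) ^ i • (T ^ i) v ∈ U' := fun a => by
    have h1 : (ζ ^ a) ^ e = 1 := by rw [← pow_mul, mul_comm, pow_mul, hζ.pow_eq_one, one_pow]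
    have h2 : ζ ^ a • T (∑ i ∈ range e, (ζ ^ a) ^ i • (T ^ i) v) =
        ∑ i ∈ range e, (ζ ^ a) ^ i • (T ^ i) v := by
      have h3 := sum_range_succ (fun i => (ζ ^ a) ^ i • (T ^ i) v) e
      rw [sum_range_succ', h1, hT, pow_zero, pow_zero] at h3
      rw [map_sum, smul_sum, ← add_right_cancel h3]
      exact sum_congr rfl fun i _ => by
        rw [map_smul, smul_smul, pow_succ', pow_succ' T, End.mul_apply]
    refine h ((ζ ^ a) ^ (e - 1)) (by rw [← pow_mul, mul_comm, pow_mul, h1, one_pow]) _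
      (U.sum_mem fun i _ => U.smul_mem _ (hp i)) ?_
    conv_rhs => rw [← h2]
    rw [smul_smul, ← pow_succ, Nat.sub_add_cancel e0, h1, one_smul]
  have hs := U'.sum_mem fun a (_ : a ∈ range e) => hw a
  rw [sum_comm] at hs
  simp only [← sum_smul] at hs
  rw [sum_eq_single 0 (fun i hi h0 => by
    have h1 : ζ ^ i - 1 ≠ 0 := sub_ne_zero.2 (hζ.pow_ne_one_of_pos_of_lt h0 (mem_range.1 hi))
    have h2 := mul_geom_sum (ζ ^ i) e
    rw [← pow_mul, mul_comm i, pow_mul, hζ.pow_eq_one, one_pow, sub_self] at h2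
    simp only [← pow_mul, mul_comm _ i]
    simp only [pow_mul, (mul_eq_zero.1 h2).resolve_left h1, zero_smul])
    (fun h => absurd (mem_range.2 e0) h)] at hs
  simp only [pow_zero, sum_const, card_range, nsmul_eq_mul, mul_one, End.one_apply] at hs
  exact (U'.smul_mem_iff_of_isUnit he).1 hs

variable {k V : Type*} [Field k] [AddCommGroup V] [Module k V] [FiniteDimensional k V]

theorem rank_succ (Y : End k V) (j : ℕ) : finrank k (LinearMap.range (Y ^ j)) =
    finrank k (LinearMap.range (Y ^ (j + 1))) +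
      finrank k ↥(LinearMap.ker Y ⊓ LinearMap.range (Y ^ j)) := by
  rw [← (Y.domRestrict (LinearMap.range (Y ^ j))).finrank_range_add_finrank_ker,
    LinearMap.range_domRestrict, ← LinearMap.range_comp, pow_succ', LinearMap.ker_domRestrict,
    ← (Submodule.comapSubtypeEquivOfLe (inf_le_right (a := LinearMap.ker Y))).finrank_eq,
    Submodule.comap_inf, Submodule.comap_subtype_self, inf_top_eq]
  rfl

omit [FiniteDimensional k V] in
theorem top_le {Y : End k V} {n j : ℕ} (hY : Y ^ (n + 1) = 0) (hj : j ≤ n) :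
    LinearMap.range (Y ^ n) ≤ LinearMap.ker Y ⊓ LinearMap.range (Y ^ j) := by
  rintro _ ⟨w, rfl⟩
  refine ⟨?_, (Y ^ (n - j)) w, by rw [← End.mul_apply, ← pow_add, Nat.add_sub_cancel' hj]⟩
  show Y _ = 0
  rw [← End.mul_apply, ← pow_succ', hY, LinearMap.zero_apply]

theorem mul_rank_le {Y : End k V} {n : ℕ} (hY : Y ^ (n + 1) = 0) (i : ℕ) : ∀ j, i + j = n + 1 →
    i * finrank k (LinearMap.range (Y ^ n)) ≤ finrank k (LinearMap.range (Y ^ j)) := by
  induction i with
  | zero => simp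
  | succ i ih =>
    intro j hj
    have h1 := ih (j + 1) (by omega)
    have h2 := Submodule.finrank_mono (top_le hY (show j ≤ n by omega))
    rw [rank_succ Y j, Nat.succ_mul]
    omega

theorem ker_transpose {ι : Type} [Fintype ι] [DecidableEq ι] (A : Matrix ι ι k) :
    finrank k (LinearMap.ker (toLin' Aᵀ)) = finrank k (LinearMap.ker (toLin' A)) := by
  have h1 := (toLin' A).finrank_range_add_finrank_ker
  have h2 := (toLin' Aᵀ).finrank_range_add_finrank_ker
  have h3 : finrank k (LinearMap.range (toLin' Aᵀ)) = finrank k (LinearMap.range (toLin' A)) :=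
    rank_transpose A
  omega

end lin

universe u

variable {G : Type u} [Group G] {M : Ideal AlgInt} [M.IsMaximal] {p e h : ℕ} [Fact p.Prime]
  {x y : G}

section lat

variable {ι κ : Type} [Fintype ι] [DecidableEq ι] [Fintype κ] [DecidableEq κ]

/-- The reduction of a lattice. -/
noncomputable def rd (D : G →* Matrix ι ι (S M)) : Representation (F M) G (ι → F M) :=
  ((Matrix.toLinAlgEquiv' (R := F M) (n := ι)).toRingEquiv.toMonoidHom.comp
    (res M).mapMatrix.toMonoidHom).comp D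

theorem rd_apply (D : G →* Matrix ι ι (S M)) (g : G) :
    rd D g = toLin' ((D g).map (res M)) := rfl

theorem rd_red (D : G →* Matrix ι ι (S M)) (g : G) (v : ι → S M) :
    rd D g (res M ∘ v) = res M ∘ (D g *ᵥ v) := funext fun i => (RingHom.map_mulVec _ _ _ i).symm

theorem lift_rd (D : G →* Matrix ι ι (S M)) : Lift M (rd D) (cx D).character :=
  ⟨ι, _, _, D, LinearEquiv.refl _ _, fun g => cx_char D g, fun _ _ => rfl⟩

theorem exists_lat [Finite G] (hM : IsPModular p M) {χ : G → ℂ} (hχ : IsIrrCharacter G χ) :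
    ∃ (ι : Type) (_ : Fintype ι) (_ : DecidableEq ι) (D : G →* Matrix ι ι (S M)),
      χ = (cx D).character ∧ Loc (rd D) := by
  obtain ⟨n, ρ, ⟨ι, _, _, D, b, h1, h2⟩, hL⟩ := jobLat G p M hM χ hχ
  refine ⟨ι, _, _, D, funext fun g => by rw [cx_char, h1], fun f hf => ?_⟩
  have h3 : ∀ g, b.conjRingEquiv (rd D g) = ρ g := fun g => LinearMap.ext fun v => by
    obtain ⟨v, rfl⟩ := b.surjective v
    simpa [rd_apply] using h2 g v
  rcases hL (b.conjRingEquiv f) (fun g => by rw [← h3, ← map_mul, hf, map_mul]) with h | h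
  · exact Or.inl ((IsNilpotent.map_iff b.conjRingEquiv.injective).1 h)
  · exact Or.inr (by simpa using h.map b.conjRingEquiv.symm)

/-- The action on homomorphisms of lattices. -/
def hm (D : G →* Matrix ι ι (S M)) (D' : G →* Matrix κ κ (S M)) :
    Representation (S M) G (Matrix κ ι (S M)) where
  toFun g :=
    { toFun A := D' g * A * D g⁻¹
      map_add' A B := by rw [Matrix.mul_add, Matrix.add_mul]
      map_smul' c A := by simp }
  map_one' := by ext; simp
  map_mul' a b := LinearMap.ext fun A => by simp [Matrix.mul_assoc]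

theorem hm_apply (D : G →* Matrix ι ι (S M)) (D' : G →* Matrix κ κ (S M)) (g : G)
    (A : Matrix κ ι (S M)) : hm D D' g A = D' g * A * D g⁻¹ := rfl

theorem hm_fix {D : G →* Matrix ι ι (S M)} {D' : G →* Matrix κ κ (S M)} {g : G}
    {A : Matrix κ ι (S M)} : hm D D' g A = A ↔ D' g * A = A * D g := by
  rw [hm_apply]
  refine ⟨fun h => ?_, fun h => by rw [h, Matrix.mul_assoc, ← map_mul]; simp⟩
  conv_rhs => rw [← h, Matrix.mul_assoc, ← map_mul]
  simp

theorem schur [Fintype G] {D : G →* Matrix ι ι (S M)} {D' : G →* Matrix κ κ (S M)}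
    (h : classInner (cx D').character (cx D).character = 0) {A : Matrix κ ι (S M)}
    (hA : ∀ g, hm D D' g A = A) : A = 0 := by
  rw [classInner_rep, Nat.cast_eq_zero, finrank_zero_iff] at h
  let f : (cx D).IntertwiningMap (cx D') := ⟨toLin' (A.map (S M).subtype), fun g => by
    rw [cx_apply, cx_apply, ← toLin'_mul, ← toLin'_mul, ← Matrix.map_mul, ← Matrix.map_mul,
      hm_fix.1 (hA g)]⟩
  have h1 : toLin' (A.map (S M).subtype) = 0 :=
    congrArg Representation.IntertwiningMap.toLinearMap (Subsingleton.elim f 0)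
  have h2 := toLin'.map_eq_zero_iff.1 h1
  ext i j
  exact congrFun (congrFun h2 i) j

theorem pow_fix {D : G →* Matrix ι ι (S M)} {v : ι → S M} (h : D y *ᵥ v = v) (j : ℕ) :
    D (y ^ j) *ᵥ v = v := by
  induction j with
  | zero => simp
  | succ j ih => rw [pow_succ, map_mul, ← mulVec_mulVec, h, ih]

theorem fix_pow {D : G →* Matrix ι ι (S M)} {f : ι → S M} (h : f ᵥ* D y = f) (j : ℕ) :
    f ᵥ* D (y ^ j) = f := by
  induction j with
  | zero => simp
  | succ j ih => rw [pow_succ, map_mul, ← vecMul_vecMul, ih, h]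

end lat

variable (M) in
/-- The linear character of `N(P)` of weight `γ` splits off a lattice with character `χ`. -/
def Wt (x y : G) (χ : G → ℂ) (γ : S M) : Prop :=
  ∃ (ι : Type) (_ : Fintype ι) (_ : DecidableEq ι) (D : G →* Matrix ι ι (S M)) (v f : ι → S M),
    χ = (cx D).character ∧ D y *ᵥ v = v ∧ D x *ᵥ v = γ • v ∧ f ᵥ* D y = f ∧ f ᵥ* D x = γ • f ∧
      IsUnit (f ⬝ᵥ v)

theorem wt_one : Wt M x y (fun _ => 1) 1 :=
  ⟨Unit, _, _, 1, 1, 1, funext fun g => by rw [cx_char]; simp, by simp, by simp, by simp, by simp,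
    by simp⟩

theorem Wt.dual {χ : G → ℂ} {γ γ' : S M} (h : Wt M x y χ γ) (hγ : γ' * γ = 1) :
    Wt M x y (fun g => χ g⁻¹) γ' := by
  obtain ⟨ι, _, _, D, v, f, rfl, h1, h2, h3, h4, h5⟩ := h
  have k1 : ∀ (g : G) (c c' : S M), c' * c = 1 → f ᵥ* D g = c • f → f ᵥ* D g⁻¹ = c' • f :=
    fun g c c' hc hg => by
      have := congrArg (fun w => c' • (w ᵥ* D g⁻¹)) hg
      simpa [← map_mul, smul_vecMul, smul_smul, hc] using this.symm
  have k2 : ∀ (g : G) (c c' : S M), c' * c = 1 → D g *ᵥ v = c • v → D g⁻¹ *ᵥ v = c' • v :=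
    fun g c c' hc hg => by
      have := congrArg (fun w => c' • (D g⁻¹ *ᵥ w)) hg
      simpa [← map_mul, mulVec_smul, smul_smul, hc] using this.symm
  refine ⟨ι, _, _, ⟨⟨fun g => (D g⁻¹)ᵀ, by simp⟩, fun a b => by simp⟩, f, v,
    funext fun g => by rw [cx_char, cx_char]; simp, ?_, ?_, ?_, ?_, by rwa [dotProduct_comm]⟩
  · simpa [mulVec_transpose] using k1 y 1 1 (one_mul 1) (by simpa using h3)
  · simpa [mulVec_transpose] using k1 x γ γ' hγ h4
  · simpa [vecMul_transpose] using k2 y 1 1 (one_mul 1) (by simpa using h1)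
  · simpa [vecMul_transpose] using k2 x γ γ' hγ h2

variable [Fintype G] {P : Sylow p G} [Fintype (P : Subgroup G)]

theorem Wt.tr (L : Lo p e h (P : Subgroup G) x y) (hZ : Subgroup.center G = ⊥) {χ : G → ℂ}
    {γ : S M} (hχ : Wt M x y χ γ) {κ : Type} [Fintype κ] [DecidableEq κ]
    {D' : G →* Matrix κ κ (S M)} (h0 : classInner (cx D').character χ = 0) {v' : κ → S M}
    (k1 : D' y *ᵥ v' = v') (k2 : D' x *ᵥ v' = γ • v') :
    ∃ u, v' = ∑ z : (P : Subgroup G), D' z *ᵥ u := by
  obtain ⟨ι, _, _, D, v, f, rfl, h1, -, h3, h4, c, hc⟩ := hχ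
  have hst : ∀ n ∈ Nor (P : Subgroup G), hm D D' n (vecMulVec v' f) = vecMulVec v' f := by
    have hx : hm D D' x (vecMulVec v' f) = vecMulVec v' f := hm_fix.2 (by
      rw [mul_vecMulVec, vecMulVec_mul, k2, h4, smul_vecMulVec, vecMulVec_smul])
    have hy : hm D D' y (vecMulVec v' f) = vecMulVec v' f := hm_fix.2 (by
      rw [mul_vecMulVec, vecMulVec_mul, k1, h3])
    have hp : ∀ g, hm D D' g (vecMulVec v' f) = vecMulVec v' f → ∀ i : ℕ,
        hm D D' (g ^ i) (vecMulVec v' f) = vecMulVec v' f := fun g hg i => by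
      induction i with
      | zero => simp
      | succ i ih => rw [pow_succ, map_mul, End.mul_apply, hg, ih]
    intro n hn
    obtain ⟨i, -, c, hc, rfl⟩ := L.nor n hn
    obtain ⟨j, z, hz, rfl⟩ := L.cen c hc
    rw [hZ, Subgroup.mem_bot] at hz
    rw [hz, mul_one, map_mul, End.mul_apply, hp y hy, hp x hx]
  obtain ⟨w, u, hw, e1⟩ := exists_fixed (hm D D') P L.card hst
  rw [schur h0 hw, zero_add] at e1
  refine ⟨(c⁻¹ : (S M)ˣ) • (u *ᵥ v), ?_⟩
  have e2 := congrArg (fun A => (c⁻¹ : (S M)ˣ) • (A *ᵥ v)) e1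
  simp only [vecMulVec_mulVec, ← hc, sum_mulVec, smul_sum] at e2
  rw [op_smul_eq_smul, Units.smul_def, smul_smul, Units.inv_mul, one_smul] at e2
  rw [e2]
  refine sum_congr rfl fun z _ => ?_
  obtain ⟨j, -, hj⟩ := L.exists_pow (inv_mem z.2)
  rw [hm_apply, ← mulVec_mulVec, ← mulVec_mulVec, hj, pow_fix h1, mulVec_smul]

theorem Wt.inj (hM : IsPModular p M) (L : Lo p e h (P : Subgroup G) x y)
    (hZ : Subgroup.center G = ⊥) {χ ζ : IrrCharacter G} {γ : S M} (hχ : Wt M x y χ γ)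
    (hζ : Wt M x y ζ γ) : χ = ζ := by
  by_contra hne
  obtain ⟨ι, _, _, D, v, f, e0, h1, h2, h3, -, h5⟩ := hζ
  obtain ⟨u, hu⟩ := hχ.tr L hZ (D' := D) (by rw [← e0, classInner_irr, if_neg (Ne.symm hne)]) h1 h2
  have : f ⬝ᵥ v = p * (f ⬝ᵥ u) := by
    rw [hu, dotProduct_sum, sum_congr rfl (g := fun _ => f ⬝ᵥ u) fun z _ => by
      obtain ⟨j, -, hj⟩ := L.exists_pow z.2
      rw [dotProduct_mulVec, hj, fix_pow h3]]
    simp [← Nat.card_eq_fintype_card, L.card]
  rw [this] at h5
  exact isUnit_S_iff.1 (isUnit_of_mul_isUnit_left h5) (by simpa using P_p hM)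

end H45.It
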