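/- All weights are taken (tower IT). -/
import Cfsg.Agent.H45.ItW

set_option autoImplicit false

namespace H45.It

open Cfsg H28 H35 H39 H87 H2.PR H93.PR Module Matrix Finset

universe u

variable {G : Type u} [Group G] {M : Ideal AlgInt} [M.IsMaximal] {p e h : ℕ} [Fact p.Prime]
  {x y : G} {ι : Type} [Fintype ι] [DecidableEq ι]

/-- Integral vectors with reduction in a subspace. -/
def pre (W : Submodule (F M) (ι → F M)) : Submodule (S M) (ι → S M) where
  carrier := {v | res M ∘ v ∈ W}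
  zero_mem' := by simpa using W.zero_mem
  add_mem' {a b} ha hb := by
    have : res M ∘ (a + b) = res M ∘ a + res M ∘ b := funext fun i => map_add _ _ _
    show res M ∘ _ ∈ W
    rw [this]; exact W.add_mem ha hb
  smul_mem' c a ha := by
    have : res M ∘ (c • a) = res M c • (res M ∘ a) := funext fun i => map_mul _ _ _
    show res M ∘ _ ∈ W
    rw [this]; exact W.smul_mem _ ha

theorem le_of_int (hM : IsPModular p M) (B : Matrix ι ι (S M)) {W : Submodule (F M) (ι → F M)}
    (h : LinearMap.ker (toLin' B) ≤ pre W) :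
    finrank ℂ (LinearMap.ker (toLin' (B.map (S M).subtype))) ≤ finrank (F M) W :=
  (le_red hM B).trans (Submodule.finrank_mono (by
    rintro _ ⟨m, hm, rfl⟩
    refine h (funext fun i => Subtype.ext ?_)
    exact (RingHom.map_mulVec (S M).subtype B m i).trans (congrFun hm i)))

theorem mem_fx {A : Matrix ι ι (S M)} {v : ι → S M} :
    v ∈ LinearMap.ker (toLin' (A - 1)) ↔ A *ᵥ v = v := by
  rw [LinearMap.mem_ker, toLin'_apply, sub_mulVec, one_mulVec, sub_eq_zero]

theorem exists_root [Finite G] (hM : IsPModular p M) {P : Subgroup G} (L : Lo p e h P x y) :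
    IsUnit (e : S M) ∧ ∃ ζ : S M, IsPrimitiveRoot ζ e := by
  have h0 := L.e_pos
  have hz := Complex.isPrimitiveRoot_exp e h0.ne'
  refine ⟨isUnit_S_iff.2 fun h1 => ?_, ⟨_, mem_S_of_pow_eq_one h0.ne' hz.pow_eq_one⟩,
    IsPrimitiveRoot.coe_submonoidClass_iff.1 hz⟩
  exact Nat.not_dvd_of_pos_of_lt h0 L.e_lt ((P_natCast_iff hM).1 (by simpa using h1))

theorem xe_one {P : Subgroup G} (L : Lo p e h P x y) (hZ : Subgroup.center G = ⊥) : x ^ e = 1 := by
  have := L.xe
  rwa [hZ, Subgroup.mem_bot] at this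

variable [Fintype G] {P : Sylow p G} [Fintype (P : Subgroup G)]

theorem ker_dim (L : Lo p e h (P : Subgroup G) x y) (D : G →* Matrix ι ι (S M)) {m : ℕ}
    (hm : ∑ z : (P : Subgroup G), (cx D).character z = p * m) :
    finrank ℂ (LinearMap.ker (toLin' ((D y - 1).map (S M).subtype))) = m := by
  rw [← finrank_range_sum (cx D) P (a := m) (by rw [hm, L.card])]
  refine congrArg (fun U : Submodule ℂ (ι → ℂ) => finrank ℂ U) (Submodule.ext fun v => ?_)
  have : toLin' ((D y - 1).map (S M).subtype) = cx D y - 1 := by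
    rw [cx_apply, ← RingHom.mapMatrix_apply, map_sub, map_one, map_sub, toLin'_one]; rfl
  rw [mem_range_sum, this, LinearMap.mem_ker, LinearMap.sub_apply, sub_eq_zero, End.one_apply]
  refine ⟨fun h z => ?_, fun h => h ⟨y, L.mem⟩⟩
  obtain ⟨j, -, hj⟩ := L.exists_pow z.2
  rw [hj, map_pow, End.pow_apply]
  exact Function.IsFixedPt.iterate h j

theorem fx_inv (L : Lo p e h (P : Subgroup G) x y) (D : G →* Matrix ι ι (S M)) :
    ∀ v ∈ LinearMap.ker (toLin' (D y - 1)), toLin' (D x) v ∈ LinearMap.ker (toLin' (D y - 1)) :=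
  fun v hv => by
    obtain ⟨j, -, hj⟩ := L.exists_pow (z := x⁻¹ * y * x)
      (by simpa using (Subgroup.mem_normalizer_iff.1 (inv_mem L.x_mem) y).1 L.mem)
    rw [mem_fx, toLin'_apply, mulVec_mulVec, ← map_mul, show y * x = x * y ^ j by rw [← hj]; group,
      map_mul, ← mulVec_mulVec, pow_fix (mem_fx.1 hv)]

theorem nil_rd (hM : IsPModular p M) (L : Lo p e h (P : Subgroup G) x y)
    (D : G →* Matrix ι ι (S M)) : (rd D y - 1) ^ (p - 1 + 1) = 0 := by
  haveI := charP_F hM
  rw [Nat.sub_add_cancel (Fact.out : p.Prime).pos]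
  exact sub_one_pow (F M) (L.rep_pow _)

theorem dim_le (hM : IsPModular p M) (L : Lo p e h (P : Subgroup G) x y)
    (hZ : Subgroup.center G = ⊥) (D : G →* Matrix ι ι (S M)) {m : ℕ}
    (hm : ∑ z : (P : Subgroup G), (cx D).character z = p * m)
    (hw : ∀ γ : S M, γ ^ e = 1 → ∀ v, D y *ᵥ v = v → D x *ᵥ v = γ • v →
      res M ∘ v ∈ LinearMap.range ((rd D y - 1) ^ (p - 1))) :
    m ≤ finrank (F M) (LinearMap.range ((rd D y - 1) ^ (p - 1))) := by
  obtain ⟨he, ζ, hζ⟩ := exists_root hM L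
  rw [← ker_dim L D hm]
  refine le_of_int hM _ (mem_of_wt hζ he (T := toLin' (D x)) ?_ (fx_inv L D)
    fun γ hγ v hv h1 => hw γ hγ v (mem_fx.1 hv) h1)
  rw [← toLin'_pow, ← map_pow, xe_one L hZ, map_one, toLin'_one]; rfl

theorem exists_wt (hM : IsPModular p M) (L : Lo p e h (P : Subgroup G) x y)
    (hZ : Subgroup.center G = ⊥) {χ : IrrCharacter G} (hd : dg χ = p + 1)
    (h1 : ∀ z ∈ (P : Subgroup G), z ≠ 1 → (χ : G → ℂ) z = 1) :
    ∃ γ : S M, γ ^ e = 1 ∧ Wt M x y χ γ := by
  haveI := charP_F hM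
  have hp := (Fact.out : p.Prime)
  obtain ⟨ι, _, _, D, e0, hL⟩ := exists_lat hM χ.2
  obtain ⟨he, ζ, hζ⟩ := exists_root hM L
  have hm : ∑ z : (P : Subgroup G), (cx D).character z = p * (2 : ℕ) := by
    rw [← e0, sum_prime_subgroup hp L.card h1, ← coe_dg, hd]; push_cast; ring
  have hc : Fintype.card ι = p + 1 := by
    have := coe_dg χ
    rw [hd, e0, Representation.char_one, finrank_fintype_fun_eq_card] at this
    exact_mod_cast this.symm
  have hY := nil_rd hM L D
  have eY : rd D y - 1 = toLin' ((D y - 1).map (res M)) := by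
    rw [rd_apply, ← RingHom.mapMatrix_apply (M := D y - 1), map_sub, map_one, map_sub, toLin'_one]
    rfl
  have b := (H1.PR.jobG1 (F M) p G P e h x y L _ (rd D) fun z hz => ⟨1, by
    rw [hZ, Subgroup.mem_bot] at hz; rw [hz, map_one, one_smul]⟩).2 hL
  generalize hYY : rd D y - 1 = Y at hY eY b
  have fx : ∀ v, D y *ᵥ v = v → res M ∘ v ∈ LinearMap.ker Y := fun v hv => by
    rw [← hYY, LinearMap.mem_ker, LinearMap.sub_apply, rd_red, hv, End.one_apply, sub_self]
  have a : 2 ≤ finrank (F M) (LinearMap.ker Y) :=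
    (ker_dim L D hm).symm.le.trans (le_of_int hM _ fun v hv => fx v (mem_fx.1 hv))
  have h3 : 3 ≤ p := by have := L.e_lt; have := L.two; omega
  have c0 := mul_rank_le hY p 0 (by omega)
  have c2 := mul_rank_le hY (p - 2) 2 (by omega)
  have d0 := Y.finrank_range_add_finrank_ker
  have d1 := rank_succ Y 1
  rw [pow_zero, End.one_eq_id, LinearMap.range_id, finrank_top] at c0
  rw [finrank_fintype_fun_eq_card, hc] at c0 d0
  have r1 : finrank (F M) (LinearMap.range (Y ^ (p - 1))) = 1 := by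
    by_contra hne
    have : p * 2 ≤ p * finrank (F M) (LinearMap.range (Y ^ (p - 1))) :=
      Nat.mul_le_mul_left _ (by omega)
    omega
  have d2 := Submodule.eq_of_le_of_finrank_le (top_le hY (show 1 ≤ p - 1 by omega))
    (by rw [r1, mul_one] at c2; rw [pow_one, show 1 + 1 = 2 from rfl] at d1; rw [pow_one]; omega)
  obtain ⟨γ, hγ, v, v1, v2, v3⟩ : ∃ γ : S M, γ ^ e = 1 ∧ ∃ v, D y *ᵥ v = v ∧ D x *ᵥ v = γ • v ∧
      res M ∘ v ∉ LinearMap.range Y := by
    by_contra! hh
    have := dim_le hM L hZ D hm fun γ hγ v k1 k2 => by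
      rw [hYY, d2, pow_one]; exact ⟨fx v k1, hh γ hγ v k1 k2⟩
    rw [hYY] at this
    omega
  obtain ⟨γ', f, f1, f2, f3⟩ : ∃ (γ' : S M) (f : ι → S M), f ᵥ* D y = f ∧ f ᵥ* D x = γ' • f ∧
      IsUnit (f ⬝ᵥ v) := by
    by_contra! hh
    obtain ⟨φ, φ1, φ2⟩ := Submodule.exists_dual_map_eq_bot_of_notMem v3 inferInstance
    have φ3 : ∀ w, (fun i => φ (Pi.single i 1)) ⬝ᵥ w = φ w := fun w => by
      rw [LinearMap.pi_apply_eq_sum_univ φ w, dotProduct]
      exact sum_congr rfl fun i _ => by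
        rw [smul_eq_mul, mul_comm]; congr 2; funext j; simp [Pi.single_apply, eq_comm]
    have mf : ∀ f : ι → S M, f ∈ LinearMap.ker (toLin' (D y - 1)ᵀ) ↔ f ᵥ* D y = f := fun f => by
      rw [transpose_sub, transpose_one, mem_fx, mulVec_transpose]
    let W := LinearMap.ker (toLin' ((D y - 1).map (res M))ᵀ)
    let W' := W ⊓ LinearMap.ker (dotProductBilin (F M) (F M) (res M ∘ v))
    have w1 : finrank (F M) W = 2 := by rw [ker_transpose, ← eY]; omega
    have w2 : 2 ≤ finrank (F M) W' := by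
      rw [← ker_dim L D hm, ← ker_transpose, ← transpose_map]
      refine le_of_int hM _ (mem_of_wt hζ he (T := toLin' (D x)ᵀ) ?_ (fun f hf => ?_)
        fun γ' _ f hf k1 => ⟨?_, ?_⟩)
      · rw [← toLin'_pow, ← transpose_pow, ← map_pow, xe_one L hZ, map_one,
          transpose_one, toLin'_one]; rfl
      · rw [mf, toLin'_apply, mulVec_transpose, vecMul_vecMul, ← map_mul,
          show x * y = y ^ h * x by rw [← L.xy]; group, map_mul, ← vecMul_vecMul,
          fix_pow ((mf f).1 hf)]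
      · funext i
        rw [← transpose_map]
        exact (RingHom.map_mulVec (res M) _ f i).symm.trans
          ((congrArg (res M) (congrFun hf i)).trans (map_zero _))
      · have := hh γ' f ((mf f).1 hf) (by rwa [toLin'_apply, mulVec_transpose] at k1)
        rw [isUnit_S_iff, not_not, ← res_eq_zero_iff, RingHom.map_dotProduct,
          dotProduct_comm] at this
        exact this
    have w3 : W' = W := Submodule.eq_of_le_of_finrank_le inf_le_left (by omega)
    have w4 : (fun i => φ (Pi.single i 1)) ∈ W' := by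
      rw [w3]
      funext i
      rw [toLin'_apply, mulVec_transpose, ← dotProduct_single_one (_ ᵥ* _) i, ← dotProduct_mulVec,
        φ3, ← toLin'_apply, ← eY]
      exact (Submodule.mem_bot _).1 (φ2 ▸ Submodule.mem_map_of_mem (LinearMap.mem_range_self _ _))
    exact φ1 (by rw [← φ3, dotProduct_comm]; exact w4.2)
  refine ⟨γ, hγ, ι, _, _, D, v, f, e0, v1, v2, f1, ?_, f3⟩
  have := dotProduct_mulVec f (D x) v
  rw [v2, f2, dotProduct_smul, smul_dotProduct, smul_eq_mul, smul_eq_mul] at this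
  rwa [f3.mul_right_cancel this]

end H45.It
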