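/- The count in the principal block and the end of the tower IT. -/
import Cfsg.Agent.H45.ItK
import Cfsg.Agent.H18.ItSet
import Cfsg.Agent.H26.ItEx
import Cfsg.Agent.H55.ItEv
import Cfsg.Agent.H87.LinD
import Cfsg.Agent.H88.PrimeLine
import Cfsg.Agent.S0806

set_option autoImplicit false

namespace H45.It

open Cfsg H28 H35 H39 H87 H2.PR H93.PR Module Matrix Finset

universe u v

variable {G : Type u} [Group G] {p e h : ℕ} [Fact p.Prime] {x y : G} [Fintype G] {P : Sylow p G}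
  [Fintype (P : Subgroup G)]

section mod

variable {M : Ideal AlgInt} [M.IsMaximal]

theorem all_wt (hM : IsPModular p M) (L : Lo p e h (P : Subgroup G) x y)
    (hZ : Subgroup.center G = ⊥) (he : Odd e) {R : Finset (IrrCharacter G)}
    (hR : e ≤ 2 * R.card + 1) (hχ : ∀ χ ∈ R, dg χ = p + 1 ∧
      (∀ z ∈ (P : Subgroup G), z ≠ 1 → (χ : G → ℂ) z = 1) ∧ ∀ g, (χ : G → ℂ) g⁻¹ = (χ : G → ℂ) g) :
    2 * R.card + 1 ≤ e ∧ ∀ γ : S M, γ ^ e = 1 → ∃ χ, (χ = one G ∨ χ ∈ R) ∧ Wt M x y χ γ := by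
  classical
  obtain ⟨-, ζ, hζ⟩ := exists_root hM L
  choose w w1 w2 using fun χ : R => exists_wt hM L hZ (hχ χ χ.2).1 (hχ χ χ.2).2.1
  have e1 : ∀ χ, w χ ^ (e - 1) * w χ = 1 := fun χ => by
    rw [← pow_succ, Nat.sub_add_cancel L.e_pos, w1]
  have n1 : ∀ χ : R, χ.1 ≠ one G := fun χ h => by
    have h2 := (hχ χ χ.2).1
    have := (Fact.out : p.Prime).pos
    rw [h, dg_one] at h2
    omega
  let o : Option (R × Bool) → IrrCharacter G := fun a => a.elim (one G) fun b => b.1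
  let f : Option (R × Bool) → S M := fun a =>
    a.elim 1 fun b => if b.2 then w b.1 else w b.1 ^ (e - 1)
  have hf : ∀ a, f a ^ e = 1 ∧ Wt M x y (o a) (f a) := by
    rintro (_ | ⟨χ, _ | _⟩)
    · exact ⟨one_pow _, wt_one⟩
    · refine ⟨(pow_right_comm _ _ _).trans (by rw [w1, one_pow]), ?_⟩
      have := (w2 χ).dual (e1 χ)
      rwa [funext (hχ χ χ.2).2.2] at this
    · exact ⟨w1 χ, w2 χ⟩
  have n2 : ∀ χ, w χ ^ (e - 1) ≠ w χ := fun χ h1 => by
    obtain ⟨k, hk⟩ := he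
    have h2 := w1 χ
    have h3 := e1 χ
    rw [h1] at h3
    rw [hk, pow_succ, pow_mul, sq, h3, one_pow, one_mul] at h2
    exact n1 χ (Wt.inj hM L hZ (h2 ▸ w2 χ) wt_one)
  have inj : Function.Injective f := fun a b hab => by
    have := Wt.inj hM L hZ (hf a).2 (hab ▸ (hf b).2)
    rcases a with _ | ⟨χ, s⟩ <;> rcases b with _ | ⟨χ', s'⟩
    · rfl
    · exact absurd this.symm (n1 χ')
    · exact absurd this (n1 χ)
    obtain rfl : χ = χ' := Subtype.ext this
    cases s <;> cases s'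
    · rfl
    · exact absurd hab (n2 χ)
    · exact absurd hab.symm (n2 χ)
    · rfl
  have c1 : (univ.image f).card = 2 * R.card + 1 := by
    rw [card_image_of_injective _ inj]; simp [mul_comm]
  have c2 : univ.image f ⊆ Polynomial.nthRootsFinset e 1 := fun γ hγ => by
    obtain ⟨a, -, rfl⟩ := mem_image.1 hγ
    exact (Polynomial.mem_nthRootsFinset L.e_pos _).2 (hf a).1
  have c3 := hζ.card_nthRootsFinset
  refine ⟨c1 ▸ c3 ▸ card_le_card c2, fun γ hγ => ?_⟩
  obtain ⟨a, -, rfl⟩ := mem_image.1 ((eq_of_subset_of_card_le c2 (by omega)).ge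
    ((Polynomial.mem_nthRootsFinset L.e_pos _).2 hγ))
  refine ⟨o a, ?_, (hf a).2⟩
  rcases a with _ | ⟨χ, s⟩
  exacts [Or.inl rfl, Or.inr χ.2]

theorem proj_le (hM : IsPModular p M) (L : Lo p e h (P : Subgroup G) x y)
    (hZ : Subgroup.center G = ⊥) {ζ : IrrCharacter G}
    (hall : ∀ γ : S M, γ ^ e = 1 → ∃ χ : IrrCharacter G, χ ≠ ζ ∧ Wt M x y χ γ) {c : ℕ}
    (hc : ∑ z : (P : Subgroup G), (ζ : G → ℂ) z = (dg ζ + c : ℕ)) : c = 0 := by
  haveI := charP_F hM
  obtain ⟨ι, _, _, D, e0, -⟩ := exists_lat hM ζ.2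
  obtain ⟨m, hm⟩ := exists_sum_eq ζ.2.isCharacter (P : Subgroup G)
  rw [L.card] at hm
  have h1 := dim_le hM L hZ D (e0 ▸ hm) fun γ hγ v k1 k2 => by
    obtain ⟨χ, hne, hχ⟩ := hall γ hγ
    obtain ⟨u, hu⟩ := hχ.tr L hZ (D' := D) (by rw [← e0, classInner_irr, if_neg hne.symm]) k1 k2
    refine ⟨res M ∘ u, ?_⟩
    rw [← sum_P (rd D) L.card L.mem L.ne, LinearMap.sum_apply, hu]
    funext i
    simp [rd_red]
  have c0 := (mul_rank_le (nil_rd hM L D) p 0
    (by have := (Fact.out : p.Prime).pos; omega)).trans (Submodule.finrank_le _)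
  have c1 := coe_dg ζ
  rw [finrank_fintype_fun_eq_card] at c0
  rw [e0, Representation.char_one, finrank_fintype_fun_eq_card] at c1
  have c2 : dg ζ + c = p * m := by exact_mod_cast hc.symm.trans hm
  have c3 := Nat.mul_le_mul_left p h1
  have c4 : dg ζ = Fintype.card ι := by exact_mod_cast c1
  have := c3.trans c0
  omega

end mod

theorem exists_small (L : Lo p e h (P : Subgroup G) x y) (hZ : Subgroup.center G = ⊥) (he : Odd e)
    {R : Finset (IrrCharacter G)} (hR : e ≤ 2 * R.card + 1) (hχ : ∀ χ ∈ R, dg χ = p + 1 ∧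
      (∀ z ∈ (P : Subgroup G), z ≠ 1 → (χ : G → ℂ) z = 1) ∧ ∀ g, (χ : G → ℂ) g⁻¹ = (χ : G → ℂ) g) :
    ∃ θ : IrrCharacter G, θ ≠ one G ∧ dg θ ≤ e ∧ 2 * e + 1 ≤ p := by
  classical
  have hp := (Fact.out : p.Prime)
  obtain ⟨M, hM⟩ := exists_isPModular p hp
  have := hM.2.1
  obtain ⟨a1, a2⟩ := all_wt hM L hZ he hR hχ
  have key : ∀ ζ : IrrCharacter G, ζ ≠ one G → ζ ∉ R → ∀ c : ℕ,
      ∑ z : (P : Subgroup G), (ζ : G → ℂ) z = (dg ζ + c : ℕ) → c = 0 := fun ζ h1 h2 c hc =>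
    proj_le hM L hZ (fun γ hγ => by
      obtain ⟨χ, h3, h4⟩ := a2 γ hγ
      exact ⟨χ, by rintro rfl; exact h3.elim h1 h2, h4⟩) hc
  obtain ⟨t, X, Y, δ, ε, B⟩ := exists_br H2.cycKey2 P L.card
  have hm := fun ξ : IrrCharacter G => L.cpl.master_ker ξ.2.isClassFunction (hZ ▸ bot_le)
  rw [L.idx] at hm
  rw [show (Subgroup.centralizer ((P : Subgroup G) : Set G)).relIndex
    (Subgroup.normalizer ((P : Subgroup G) : Set G)) = e from L.idx] at B
  have ht : 2 * e + 1 ≤ p := by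
    have h1 := B.te
    have h2 := hp.eq_two_or_odd'.resolve_left L.ne_two
    rw [← h1, Nat.odd_add_one, Nat.not_odd_iff_even, Nat.even_mul, ← Nat.not_odd_iff_even (n := e),
      not_true_eq_false.mpr.comp id |> fun _ => or_iff_left (not_not.2 he)] at h2
    have := Nat.mul_le_mul_right e (Nat.le_of_dvd B.t_pos h2.two_dvd)
    omega
  obtain ⟨θ, hθ⟩ := B.Y_nonempty
  refine ⟨θ, B.ne_one hθ, ?_, ht⟩
  have hε : ε = 1 := B.sε.resolve_right fun h1 => by
    have h2 : ∑ z : (P : Subgroup G), (θ : G → ℂ) z = (dg θ + e : ℕ) := by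
      have := hm θ
      rw [sS_apply, B.inner_sg_Y hθ, h1, ← coe_dg] at this
      push_cast at this ⊢
      linear_combination -this
    by_cases h3 : θ ∈ R
    · rw [sum_prime_subgroup hp L.card (hχ θ h3).2.1, ← coe_dg] at h2
      have : (p : ℂ) = e + 1 := by push_cast at h2; linear_combination h2
      have : p = e + 1 := by exact_mod_cast this
      have := L.e_pos
      omega
    · exact L.e_pos.ne' (key θ (B.ne_one hθ) h3 e h2)
  have h1 := B.deg_eq hθ
  have h2 : ∑ χ ∈ X, δ χ * dg χ ≤ ∑ χ ∈ X,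
      ((if χ ∈ R then 2 * (p : ℤ) else 0) + (if χ = one G then (p : ℤ) else 0) + (1 - p) : ℤ) :=
    sum_le_sum fun χ hX => by
      by_cases k1 : χ = one G
      · rw [k1, B.δ_one, dg_one, if_pos rfl]; split_ifs <;> omega
      by_cases k2 : χ ∈ R
      · rw [if_pos k2, if_neg k1, (hχ χ k2).1]
        rcases B.sδ χ with k3 | k3 <;> rw [k3] <;> omega
      have k3 : δ χ = -1 := (B.sδ χ).resolve_left fun k3 => by
        have := key χ k1 k2 (p - 1) (by
          rw [sum_prime_subgroup hp L.card (c := 1) fun z hz h1 => by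
            rw [B.valX χ hX z (orderOf_eq_of_mem hp L.card hz h1).symm.dvd, k3, Int.cast_one],
            ← coe_dg, Nat.cast_add, Nat.cast_sub hp.one_le]
          simp)
        have := hp.two_le
        omega
      obtain ⟨m, k4⟩ := B.exists_dg_X hX
      rw [if_neg k1, if_neg k2, k3]
      rw [k3] at k4
      have : (0 : ℤ) ≤ p * m := by positivity
      omega
  rw [sum_add_distrib, sum_add_distrib, sum_ite_mem, sum_ite_eq', if_pos B.one_mem, sum_const,
    sum_const, B.cardX, ← h1, hε, nsmul_eq_mul, nsmul_eq_mul] at h2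
  have h3 : (X ∩ R).card ≤ R.card := card_le_card inter_subset_right
  have h4 : (p : ℤ) * (2 * (X ∩ R).card + 1) ≤ p * e :=
    mul_le_mul_of_nonneg_left (by omega) (by positivity)
  have : (dg θ : ℤ) ≤ e := by linarith
  omega

omit [Fintype G] [Fintype (P : Subgroup G)] in
theorem main (Ω : Type v) [Finite G] [MulAction G Ω] [FaithfulSMul G Ω] [Finite Ω]
    [MulAction.IsPretransitive G Ω] (hΩ : Nat.card Ω = p)
    (hu : ∃! χ : IrrCharacter G, charDegree (χ : G → ℂ) = p) (P : Sylow p G) (E : Subgroup G)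
    (h1 : (P : Subgroup G) ⊔ E = Subgroup.normalizer ((P : Subgroup G) : Set G))
    (h2 : (P : Subgroup G) ⊓ E = ⊥) (h3 : Nat.card (Subgroup.normalizer (E : Set G)) = 2 * Nat.card E)
    (h4 : ∀ g : G, g ∉ Subgroup.normalizer (E : Set G) →
      E ⊓ E.map (MulAut.conj g).toMonoidHom = ⊥) :
    (p = 5 ∨ p = 7 ∨ p = 11) ∧
      Nonempty (G ≃* Matrix.ProjectiveSpecialLinearGroup (Fin 2) (ZMod p)) := by
  have hp := (Fact.out : p.Prime)
  obtain ⟨e, h, x, y, ψ, U⟩ := H18.ItSet.jobSet G Ω p hΩ hu P E h1 h2 h3 h4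
  have := U.simple
  rcases Nat.even_or_odd e with he | he
  · obtain ⟨rfl, k⟩ := H55.ItEv.jobEv G Ω p e h hΩ P x y ψ U he
    exact ⟨Or.inl rfl, H88.nonempty_equiv_psl_of_simple_card (p := 5) (by norm_num)
      (by rw [k]; norm_num) _ (ZMod.card 5)⟩
  obtain ⟨R, r1, r2⟩ := H26.It.jobEx G p e h P x y ψ U he
  cases nonempty_fintype G
  cases nonempty_fintype (P : Subgroup G)
  obtain ⟨θ, t1, t2, t3⟩ := exists_small U.lo U.cen he r1 r2
  have hnn : ¬ (P : Subgroup G).Normal := fun hn => by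
    rcases hn.eq_bot_or_eq_top with k | k
    · exact U.lo.ne (Subgroup.mem_bot.1 (k ▸ U.lo.mem))
    · have := U.lo.card_nor
      have k1 := U.lo.card
      have k2 := (Nor (P : Subgroup G)).card_le_card_group
      rw [U.cen, Subgroup.card_bot, mul_one] at this
      rw [k, Subgroup.card_top] at k1
      nlinarith [U.lo.two, hp.pos]
  obtain ⟨-, k⟩ := brauer_half U.lo.card hnn θ.2.isCharacter
    (θ.2.charKer_normal.eq_bot_or_eq_top.resolve_right fun k =>
      t1 (Subtype.ext (θ.2.charKer_eq_top_iff.1 k))) (by change 2 * dg θ + 1 ≤ p; omega)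
  obtain ⟨φ⟩ := k (ZMod p) (ZMod.card p)
  let φ' := (QuotientGroup.quotientBot.symm.trans
    (QuotientGroup.quotientMulEquivOfEq U.cen.symm)).trans φ
  refine ⟨?_, ⟨φ'⟩⟩
  by_contra hne
  have := U.lo.two
  obtain ⟨a⟩ : Nonempty Ω := (Nat.card_pos_iff.1 (hΩ ▸ hp.pos)).1
  have k1 : ((MulAction.stabilizer G a).map φ'.toMonoidHom).index = p := by
    rw [Subgroup.index_map_of_bijective φ'.bijective, MulAction.index_stabilizer_of_transitive, hΩ]
  have k2 := (Cfsg.Agent.S0806.result (ZMod.card p) (by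
    have : p ≠ 9 := by rintro rfl; norm_num at hp
    simp only [mem_insert, mem_singleton]
    omega)).1 ((MulAction.stabilizer G a).map φ'.toMonoidHom)
    fun k2 => hp.one_lt.ne' (by rw [← k1, k2, Subgroup.index_top])
  omega

end H45.It
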